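import Mathlib
import Cfsg.Agent.Lib.Comp.Constrained
import Cfsg.Agent.Lib.Comp.Congr
import Cfsg.Agent.Lib.Transfer.Basic
import Cfsg.Prelude.Def_Balance

/-!
The extended `2`-layer: a single Sylow subgroup suffices, and it is normal.
-/

set_option autoImplicit false
set_option maxHeartbeats 600000

namespace Cfsg.Lib.Comp

open Subgroup
open scoped Pointwise

variable {X : Type*} [Group X]

/-- `O(C(T))` as a subgroup of the ambient group. -/
def coreCentralizer (T : Subgroup X) : Subgroup X :=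
  (Cfsg.oddCore ↥(centralizer (T : Set X))).map (centralizer (T : Set X)).subtype

theorem map_oddCore_map {Y : Type*} [Group Y] [Finite X] [Finite Y] (e : X ≃* Y) (H : Subgroup X)
    (K : Subgroup Y) (h : H.map e.toMonoidHom = K) :
    ((Cfsg.oddCore H).map H.subtype).map e.toMonoidHom = (Cfsg.oddCore K).map K.subtype := by
  have : Fact (Nat.Prime 2) := ⟨Nat.prime_two⟩
  subst h
  have key := map_pPrimeCore_equiv (p := 2) (e.subgroupMap H)
  ext y
  constructor
  · rintro ⟨_, ⟨x, hx, rfl⟩, rfl⟩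
    exact ⟨e.subgroupMap H x, key.le ⟨x, hx, rfl⟩, rfl⟩
  · rintro ⟨z, hz, rfl⟩
    obtain ⟨x, hx, rfl⟩ := key.ge hz
    exact ⟨(x : X), ⟨x, hx, rfl⟩, rfl⟩

theorem conj_coreCentralizer [Finite X] (g : X) (T : Subgroup X) :
    (coreCentralizer T).map (MulAut.conj g).toMonoidHom =
      coreCentralizer (T.map (MulAut.conj g).toMonoidHom) := by
  refine map_oddCore_map (MulAut.conj g) _ _ ?_
  ext y
  rw [Subgroup.map_equiv_eq_comap_symm', Subgroup.mem_comap, mem_centralizer_iff,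
    mem_centralizer_iff]
  constructor
  · intro h
    rintro _ ⟨t, ht, rfl⟩
    have e := congrArg (MulAut.conj g) (h t ht)
    simpa [mul_assoc] using e
  · intro h t ht
    have := congrArg (MulAut.conj g).symm (h _ ⟨t, ht, rfl⟩)
    simpa [mul_assoc] using this

theorem map_conj_of_mem {H : Subgroup X} {g : X} (hg : g ∈ normalizer (H : Set X)) :
    H.map (MulAut.conj g).toMonoidHom = H :=
  mem_normalizer_iff_map_conj_eq.1 hg

theorem le_normalizer_coreCentralizer [Finite X] (T : Subgroup X) :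
    normalizer (T : Set X) ≤ normalizer (coreCentralizer T : Set X) := by
  intro g hg
  refine mem_normalizer_iff_map_conj_eq.2 ?_
  exact (conj_coreCentralizer g T).trans (congrArg coreCentralizer (map_conj_of_mem hg))

variable [Finite X]

local notation "MM" => Cfsg.pLayer 2 X ⊔ Cfsg.pPrimePCore 2 X

theorem pLayer_normal_two : (Cfsg.pLayer 2 X).Normal := by
  refine ⟨fun n hn g => ?_⟩
  have : Fact (Nat.Prime 2) := ⟨Nat.prime_two⟩
  have hle : (Cfsg.pLayer 2 X).map (MulAut.conj g).toMonoidHom ≤ Cfsg.pLayer 2 X :=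
    Subgroup.map_le_iff_le_comap.2 (pLayer_le_iff.2 fun K hK => Subgroup.map_le_iff_le_comap.1
      (pComponent_le_pLayer (pComponent_conj g hK)))
  exact hle ⟨n, hn, rfl⟩

theorem extended_normal_aux : (MM : Subgroup X).Normal := by
  haveI := pLayer_normal_two (X := X)
  haveI : (Cfsg.pPrimePCore 2 X).Normal := by
    haveI := Cfsg.Lib.Transfer.pCore_normal (G := X ⧸ Cfsg.pPrimeCore 2 X) 2
    exact inferInstanceAs (Subgroup.Normal (Subgroup.comap _ _))
  infer_instance

theorem sup_iSup_coreCentralizer {M J : Subgroup X} [J.Normal] (T : Sylow 2 M)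
    (hgen : M ≤ J ⊔ (T : Subgroup M).map M.subtype) :
    J ⊔ ⨆ T₂ : Sylow 2 M, coreCentralizer ((T₂ : Subgroup M).map M.subtype) =
      J ⊔ coreCentralizer ((T : Subgroup M).map M.subtype) := by
  have : Fact (Nat.Prime 2) := ⟨Nat.prime_two⟩
  have hMN : M ≤ normalizer
      ((J ⊔ coreCentralizer ((T : Subgroup M).map M.subtype) : Subgroup X) : Set X) := by
    refine hgen.trans (sup_le (le_sup_left.trans le_normalizer) fun t ht => ?_)
    refine mem_normalizer_iff_map_conj_eq.2 ?_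
    exact (Subgroup.map_sup _ _ _).trans (congrArg₂ (· ⊔ ·)
      (map_conj_of_mem (le_normalizer_of_normal (mem_top t)))
      (map_conj_of_mem (le_normalizer_coreCentralizer _ (le_normalizer ht))))
  refine le_antisymm (sup_le le_sup_left (iSup_le fun T₂ => ?_))
    (sup_le_sup_left (le_iSup (fun T₂ : Sylow 2 M =>
      coreCentralizer ((T₂ : Subgroup M).map M.subtype)) T) _)
  obtain ⟨m, hm⟩ := MulAction.exists_smul_eq ↥M T T₂
  have e : (T₂ : Subgroup M).map M.subtype =
      ((T : Subgroup M).map M.subtype).map (MulAut.conj (m : X)).toMonoidHom := by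
    rw [← hm, Sylow.coe_subgroup_smul]
    ext y
    constructor
    · rintro ⟨_, ⟨x, hx, rfl⟩, rfl⟩
      exact ⟨_, ⟨x, hx, rfl⟩, rfl⟩
    · rintro ⟨_, ⟨x, hx, rfl⟩, rfl⟩
      exact ⟨_, ⟨x, hx, rfl⟩, rfl⟩
  rw [e, ← conj_coreCentralizer]
  exact (Subgroup.map_mono le_sup_right).trans (le_of_eq (map_conj_of_mem (hMN m.2)))

theorem le_sup_map_sylow {M J : Subgroup X} (hJM : J ≤ M) {P' : Subgroup X}
    (hP : IsPGroup 2 P') [J.Normal] (hMP : M = J ⊔ P') (T : Sylow 2 M) :
    M ≤ J ⊔ (T : Subgroup M).map M.subtype := by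
  have : Fact (Nat.Prime 2) := ⟨Nat.prime_two⟩
  rw [← relIndex_eq_one]
  refine Nat.eq_one_of_dvd_coprimes (a := J.relIndex M)
    (b := ((T : Subgroup M).map M.subtype).relIndex M) ?_
    (relIndex_dvd_of_le_left _ le_sup_left) (relIndex_dvd_of_le_left _ le_sup_right)
  have h1 : ((T : Subgroup M).map M.subtype).relIndex M = (T : Subgroup M).index := by
    rw [relIndex, subgroupOf, comap_map_eq_self_of_injective M.subtype_injective]
  obtain ⟨n, hn⟩ := IsPGroup.iff_card.1 hP
  have h2 : J.relIndex P' = J.relIndex M := by rw [hMP, relIndex_sup_left]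
  obtain ⟨i, -, hi⟩ := (Nat.dvd_prime_pow Nat.prime_two).1
    (hn ▸ (J.subgroupOf P').index_dvd_card : J.relIndex P' ∣ 2 ^ n)
  rw [h1, ← h2, hi]
  exact ((Nat.prime_two.coprime_iff_not_dvd).2 T.not_dvd_index).pow_left i

theorem extendedTwoLayer_eq (T : Sylow 2 ↥(MM : Subgroup X)) :
    Cfsg.extendedTwoLayer X = Cfsg.pLayer 2 X ⊔ Cfsg.oddCore X ⊔
      coreCentralizer ((T : Subgroup ↥(MM : Subgroup X)).map (MM : Subgroup X).subtype) := by
  have : Fact (Nat.Prime 2) := ⟨Nat.prime_two⟩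
  haveI := pLayer_normal_two (X := X)
  haveI : (Cfsg.oddCore X).Normal := Cfsg.Lib.Transfer.pPrimeCore_normal 2
  haveI : (Cfsg.pLayer 2 X ⊔ Cfsg.oddCore X).Normal := Subgroup.sup_normal _ _
  have hO : Cfsg.oddCore X ≤ Cfsg.pPrimePCore 2 X := core_le_pPrimePCore (p := 2)
  obtain ⟨P⟩ : Nonempty (Sylow 2 ↥(Cfsg.pPrimePCore 2 X)) := inferInstance
  have hMP : (MM : Subgroup X) = Cfsg.pLayer 2 X ⊔ Cfsg.oddCore X ⊔
      (P : Subgroup ↥(Cfsg.pPrimePCore 2 X)).map (Cfsg.pPrimePCore 2 X).subtype :=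
    ((sup_assoc _ _ _).trans (congrArg (Cfsg.pLayer 2 X ⊔ ·)
      ((sup_comm _ _).trans (sylow_sup_core_eq (p := 2) P)))).symm
  exact sup_iSup_coreCentralizer T
    (le_sup_map_sylow (sup_le_sup_left hO _) (P.isPGroup'.map _) hMP T)

theorem extendedTwoLayer_normal : (Cfsg.extendedTwoLayer X).Normal := by
  have : Fact (Nat.Prime 2) := ⟨Nat.prime_two⟩
  refine ⟨fun n hn g => ?_⟩
  haveI := extended_normal_aux (X := X)
  obtain ⟨T⟩ : Nonempty (Sylow 2 ↥(MM : Subgroup X)) := inferInstance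
  let φ : ↥(MM : Subgroup X) ≃* ↥(MM : Subgroup X) := MulAut.conjNormal g
  obtain ⟨T₂, hT₂⟩ : ∃ T₂ : Sylow 2 ↥(MM : Subgroup X),
      (T₂ : Subgroup ↥(MM : Subgroup X)) = (T : Subgroup _).map φ.toMonoidHom :=
    ⟨T.mapSurjective φ.surjective, rfl⟩
  have e : (T₂ : Subgroup ↥(MM : Subgroup X)).map (MM : Subgroup X).subtype =
      ((T : Subgroup ↥(MM : Subgroup X)).map (MM : Subgroup X).subtype).map
        (MulAut.conj g).toMonoidHom := by
    rw [hT₂, Subgroup.map_map, Subgroup.map_map]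
    rfl
  have hmap : (Cfsg.extendedTwoLayer X).map (MulAut.conj g).toMonoidHom = Cfsg.extendedTwoLayer X := by
    conv_rhs => rw [extendedTwoLayer_eq T₂]
    rw [extendedTwoLayer_eq T, Subgroup.map_sup, Subgroup.map_sup, conj_coreCentralizer, ← e]
    haveI := pLayer_normal_two (X := X)
    haveI : (Cfsg.oddCore X).Normal := Cfsg.Lib.Transfer.pPrimeCore_normal 2
    rw [map_conj_of_mem (H := Cfsg.pLayer 2 X) (le_normalizer_of_normal (mem_top g)),
      map_conj_of_mem (H := Cfsg.oddCore X) (le_normalizer_of_normal (mem_top g))]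
  exact hmap ▸ ⟨n, hn, rfl⟩

end Cfsg.Lib.Comp
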