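import Mathlib
import Cfsg.Agent.Lib.Comp.MovedComponent
import Cfsg.Agent.Lib.Comp.Congr

/-!
An involution acting on a core-free group and the odd core of its centralizer there.
-/

set_option autoImplicit false
set_option maxHeartbeats 400000

namespace Cfsg.Lib.Comp

open Subgroup
open scoped Pointwise

theorem exists_component_acted {G : Type*} [Group G] [Finite G] (H : Subgroup G)
    (hO : Cfsg.oddCore ↥H = ⊥) (t : G) (ht : orderOf t = 2) (htH : t ∈ normalizer (H : Set G))
    (Y : Subgroup G) (hY1 : Y ≠ ⊥)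
    (hY : Y ≤ (Cfsg.oddCore ↥(H ⊓ centralizer ({t} : Set G))).map
      (H ⊓ centralizer ({t} : Set G)).subtype) :
    ∃ E : Subgroup ↥H, Cfsg.IsComponent E ∧
      (E.map H.subtype).map (MulAut.conj t).toMonoidHom = E.map H.subtype ∧
      Y ≤ normalizer ((E.map H.subtype : Subgroup G) : Set G) ∧
      ¬ (t ∈ centralizer ((E.map H.subtype : Subgroup G) : Set G)) ∧
      ¬ (Y ≤ centralizer ((E.map H.subtype : Subgroup G) : Set G)) := by
  set X := H ⊔ zpowers t with hX
  have hHX : H ≤ X := le_sup_left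
  have hXn : X ≤ normalizer (H : Set G) := sup_le le_normalizer (zpowers_le.2 htH)
  set H' := H.subgroupOf X with hH'
  have hH'n : H'.Normal := normal_subgroupOf_of_le_normalizer hXn
  let tX : ↥X := ⟨t, le_sup_right (a := H) (mem_zpowers t)⟩
  have htX : orderOf tX = 2 := by
    rw [← orderOf_coe]
    exact ht
  have ht2 : t ^ 2 = 1 := ht ▸ pow_orderOf_eq_one t
  have hdvd : H'.index ∣ 2 := by
    have h0 : Nat.card ↥(zpowers t) = 2 := by rw [Nat.card_zpowers, ht]
    have h1 : H.relIndex X = H.relIndex (zpowers t) := by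
      rw [hX]
      have hN : (H.subgroupOf X).Normal := hH'n
      have hsup : H' ⊔ zpowers tX = ⊤ := by
        apply map_injective X.subtype_injective
        rw [Subgroup.map_sup, hH', subgroupOf_map_subtype, inf_eq_left.2 hHX, MonoidHom.map_zpowers,
          ← MonoidHom.range_eq_map, range_subtype]
        rfl
      have h2 : H'.relIndex (H' ⊔ zpowers tX) = H'.relIndex (zpowers tX) :=
        (relIndex_sup_left _ _)
      rw [hsup, relIndex_top_right] at h2
      rw [← hX]
      show H'.index = _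
      rw [h2, hH']
      have h3 : (zpowers t).subgroupOf X = zpowers tX := by
        apply map_injective X.subtype_injective
        rw [subgroupOf_map_subtype, inf_eq_left.2 (le_sup_right : zpowers t ≤ X),
          MonoidHom.map_zpowers]
        rfl
      rw [← h3, relIndex_subgroupOf (le_sup_right : zpowers t ≤ X)]
    show H.relIndex X ∣ 2
    rw [h1, ← h0]
    exact relIndex_dvd_card _ _
  have hXX : ⁅(⊤ : Subgroup ↥X), ⊤⁆ ≤ H' := by
    rw [commutator_le]
    intro a _ b _
    rw [← QuotientGroup.eq_one_iff, ← QuotientGroup.mk'_apply, map_commutatorElement]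
    rcases (Nat.dvd_prime Nat.prime_two).1 hdvd with h | h
    · have : Subsingleton (↥X ⧸ H') := (Nat.card_eq_one_iff_unique.1 h).1
      exact Subsingleton.elim _ _
    · have : IsCyclic (↥X ⧸ H') := isCyclic_of_prime_card (p := 2) h
      rw [commutatorElement_eq_one_iff_commute]
      exact @Commute.all _ (IsCyclic.commGroup (α := ↥X ⧸ H')).toCommMonoid.toCommSemigroup.toCommMagma _ _
  have hOX : Cfsg.pPrimeCore 2 ↥X = ⊥ := by
    have h1 := map_pPrimeCore_of_subnormal (p := 2) (hH'n.isSubnormal)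
    have h2 : Cfsg.pPrimeCore 2 ↥H' = ⊥ := by
      have := map_pPrimeCore_equiv (p := 2) (subgroupOfEquivOfLe hHX).symm
      rw [show Cfsg.pPrimeCore 2 ↥H = ⊥ from hO, Subgroup.map_bot] at this
      exact this.symm
    rw [h2, Subgroup.map_bot] at h1
    rw [← card_eq_one]
    refine Nat.eq_one_of_dvd_coprimes (Cfsg.Lib.Solv.coprime_pPrimeCore (G := ↥X) 2) dvd_rfl
      (Nat.dvd_trans ?_ hdvd)
    rw [← Cfsg.Lib.Solv.card_eq_relIndex_of_inf_eq_bot (N := H') (H := Cfsg.pPrimeCore 2 ↥X) h1.symm]
    exact relIndex_dvd_index_of_normal _ _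
  set C := H ⊓ centralizer ({t} : Set G) with hC
  set O := (Cfsg.oddCore ↥C).map C.subtype with hOdef
  have hOC : O ≤ C := map_subtype_le _
  have hYX : Y ≤ X := (hY.trans hOC).trans (inf_le_left.trans hHX)
  set Y' := Y.subgroupOf X with hY'
  have hYc : Y' ≤ Cfsg.centralizerPPrimeCore 2 tX := by
    refine le_trans (comap_mono hY) (le_pPrimeCoreOf (p := 2) ?_ ?_ ?_)
    · intro x hx
      exact mem_centralizer_singleton_iff.2 (Subtype.ext
        (mem_centralizer_singleton_iff.1 (hOC hx).2))
    · refine (normal_subgroupOf_of_le_normalizer fun g hg => ?_).isSubnormal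
      have hgt : (g : G) ∈ centralizer ({t} : Set G) :=
        mem_centralizer_singleton_iff.2 (congrArg Subtype.val (mem_centralizer_singleton_iff.1 hg))
      have hgC : (g : G) ∈ normalizer (C : Set G) := by
        rw [← Cfsg.Lib.Solv.conj_smul_eq_self_iff, hC, Subgroup.smul_inf,
          Cfsg.Lib.Solv.conj_smul_eq_self_iff.2 (hXn g.2),
          Cfsg.Lib.Solv.conj_smul_eq_self_iff.2 (le_normalizer hgt)]
      have hgO : (g : G) ∈ normalizer (O : Set G) := by
        rw [← Cfsg.Lib.Solv.conj_smul_eq_self_iff]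
        have key : ∀ φ : ↥C ≃* ↥C, (Cfsg.oddCore ↥C).map φ.toMonoidHom = Cfsg.oddCore ↥C :=
          fun φ => map_pPrimeCore_equiv (p := 2) φ
        let φ := ((MulAut.conj (g : G)).subgroupMap C).trans (MulEquiv.subgroupCongr
          (show C.map (MulAut.conj (g : G)).toMonoidHom = C from
            (Cfsg.Lib.Solv.conj_smul_eq_map _ C).symm.trans
              (Cfsg.Lib.Solv.conj_smul_eq_self_iff.2 hgC)))
        conv_rhs => rw [hOdef, ← key φ]
        rw [hOdef, Cfsg.Lib.Solv.conj_smul_eq_map, map_map, map_map]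
        rfl
      rw [mem_normalizer_iff] at hgO ⊢
      exact fun y => hgO (y : G)
    · show (Nat.card ↥(O.subgroupOf X)).Coprime 2
      rw [Nat.card_congr (subgroupOfEquivOfLe (hOC.trans (inf_le_left.trans hHX))).toEquiv, hOdef,
        card_map_of_injective (subtype_injective _)]
      exact Cfsg.Lib.Solv.coprime_pPrimeCore 2
  have hY'1 : Y' ≠ ⊥ := fun h => hY1 (by
    rw [← map_subtype_eq_of_le hYX, ← hY', h, Subgroup.map_bot])
  have htp : IsPGroup 2 ↥(zpowers tX) :=
    IsPGroup.of_card (n := 1) (by rw [Nat.card_zpowers, htX, pow_one])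
  have hYn := hYc.trans (centralizerPPrimeCore_le_normCore tX)
  obtain ⟨E, hE, hEY⟩ : ∃ E : Subgroup ↥X, Cfsg.IsComponent E ∧ ¬ Y' ≤ centralizer (E : Set ↥X) := by
    by_contra h
    push Not at h
    have h1 : Y' ≤ centralizer (Cfsg.generalizedFittingSubgroup ↥X : Set ↥X) := by
      rw [le_centralizer_iff]
      refine sup_le (layer_le_iff.2 fun E hE => le_centralizer_iff.1 (h E hE)) ?_
      rw [Cfsg.Lib.Solv.fitting_eq_pCore 2 hOX, le_centralizer_iff]
      exact hYn.trans (normCore_le_centralizer_pCore htp)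
    have h2 := h1.trans centralizer_fstar_le_fitting
    rw [Cfsg.Lib.Solv.fitting_eq_pCore 2 hOX] at h2
    refine hY'1 ((inf_eq_left.2 h2).symm.trans (Cfsg.Lib.Solv.inf_eq_bot_of_coprime_card ?_))
    obtain ⟨n, hn⟩ := IsPGroup.iff_card.1 (Cfsg.Lib.Solv.isPGroup_pCore (G := ↥X) 2)
    rw [hn]
    exact ((coprime_normCore _).coprime_dvd_left (card_dvd_of_le hYn)).pow_right n
  have hEH : E ≤ H' := (component_perfect hE).ge.trans ((commutator_mono le_top le_top).trans hXX)
  have hcases : ¬ (E ≤ centralizer ({tX} : Set ↥X) ∨ tX ∉ normalizer (E : Set ↥X)) := fun h =>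
    hEY (hYc.trans (commutator_eq_bot_iff_le_centralizer.1
      ((commutator_comm _ _).trans (component_commute_centralizerCore hOX htX hE h))))
  push Not at hcases
  set E1 := (E.subgroupOf H').map (subgroupOfEquivOfLe hHX).toMonoidHom with hE1
  have hE1c : Cfsg.IsComponent E1 := by
    have h := component_subgroupOf hE hEH
    exact ⟨h.1.map (subgroupOfEquivOfLe hHX).surjective,
      (isQuasisimple_congr (equivMapOfInjective _ (subgroupOfEquivOfLe hHX).toMonoidHom
        (subgroupOfEquivOfLe hHX).injective)).1 h.2⟩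
  have hmap : E1.map H.subtype = E.map X.subtype := by
    rw [hE1, map_map]
    conv_rhs => rw [← map_subtype_eq_of_le hEH, map_map]
    rfl
  refine ⟨E1, hE1c, ?_, ?_, ?_, ?_⟩ <;> rw [hmap]
  · have h := congrArg (Subgroup.map X.subtype) (Cfsg.Lib.Solv.conj_smul_eq_self_iff.2 hcases.2)
    rw [Cfsg.Lib.Solv.map_conj_smul] at h
    exact (Cfsg.Lib.Solv.conj_smul_eq_map _ _).symm.trans h
  · intro y hy
    have h := normCore_le_normalizer hOX htp hE (hYn (show (⟨y, hYX hy⟩ : ↥X) ∈ Y' from hy))
    have h2 := congrArg (Subgroup.map X.subtype) (Cfsg.Lib.Solv.conj_smul_eq_self_iff.2 h)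
    rw [Cfsg.Lib.Solv.map_conj_smul] at h2
    exact Cfsg.Lib.Solv.conj_smul_eq_self_iff.1 h2
  · intro h
    refine hcases.1 fun e he => mem_centralizer_singleton_iff.2 (Subtype.ext ?_)
    exact mem_centralizer_iff.1 h (e : G) (mem_map_of_mem X.subtype he)
  · intro h
    refine hEY fun y hy => mem_centralizer_iff.2 fun e he => Subtype.ext ?_
    exact mem_centralizer_iff.1 (h hy) (e : G) (mem_map_of_mem X.subtype he)

end Cfsg.Lib.Comp
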